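import Mathlib
import Cfsg.Agent.Lib.Helper60.SUG.GenDefs

/-!
# SUG (S2412), [GEN] leaf [GSHIFT]: the cyclic shift moves supports up by one
-/

set_option autoImplicit false

namespace Cfsg.Agent.Lib.Helper8.SUG

open Matrix Cfsg.Agent.Lib.Helper60.SUG

universe u

/-- [GSHIFT] -/
theorem pkgGShift : Cfsg.Agent.Lib.Helper60.SUG.PkgGShift.{u} := by
  intro F _ q n c hc v m hm1 hmn hv hex
  obtain ⟨hc1, -⟩ := hc
  refine ⟨?_, ?_⟩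
  · intro j hj
    have hj1 : (j : ℕ) - 1 < n := by have := j.2; omega
    rw [hc1 v ⟨(j : ℕ) - 1, hj1⟩ j (by show (j : ℕ) = (j : ℕ) - 1 + 1; omega)]
    exact hv ⟨(j : ℕ) - 1, hj1⟩ (by show m ≤ (j : ℕ) - 1; omega)
  · obtain ⟨i, hi, hvi⟩ := hex
    refine ⟨⟨m, hmn⟩, rfl, ?_⟩
    rw [hc1 v i ⟨m, hmn⟩ (by show m = (i : ℕ) + 1; omega)]
    exact hvi

end Cfsg.Agent.Lib.Helper8.SUG
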