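import Mathlib
import Cfsg.Agent.Lib.Helper60.SUG.GenDefs

/-!
# SUG (S2412), [GEN] leaves [GVA] and [GHERM]: the vectors `vA`, `vB`
-/

set_option autoImplicit false

namespace Cfsg.Agent.Lib.Helper8.SUG

open Matrix Cfsg.Agent.Lib.Helper60.SUG

universe u

/-- a sum over `Fin n` of a function vanishing off the coordinates `0, 1` -/
theorem sum_two {F : Type u} [Field F] {n : ℕ} (hn : 2 ≤ n) (g : Fin n → F)
    (hg : ∀ i : Fin n, 2 ≤ (i : ℕ) → g i = 0) :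
    ∑ i, g i = g ⟨0, by omega⟩ + g ⟨1, by omega⟩ := by
  apply Fintype.sum_eq_add
  · intro h
    have := congrArg Fin.val h
    simp at this
  · rintro x ⟨h0, h1⟩
    apply hg
    have h0' : (x : ℕ) ≠ 0 := fun h => h0 (Fin.ext h)
    have h1' : (x : ℕ) ≠ 1 := fun h => h1 (Fin.ext h)
    omega

theorem vA_zero {F : Type u} [Field F] {n : ℕ} (hn : 2 ≤ n) (lam : F) :
    vA n lam ⟨0, by omega⟩ = 1 := by
  simp [vA]

theorem vA_one {F : Type u} [Field F] {n : ℕ} (hn : 2 ≤ n) (lam : F) :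
    vA n lam ⟨1, by omega⟩ = lam := by
  simp [vA]

theorem vA_ge {F : Type u} [Field F] {n : ℕ} (lam : F) (i : Fin n) (hi : 2 ≤ (i : ℕ)) :
    vA n lam i = 0 := by
  have h0 : (i : ℕ) ≠ 0 := by omega
  have h1 : (i : ℕ) ≠ 1 := by omega
  simp [vA, h0, h1]

theorem vB_zero {F : Type u} [Field F] {n : ℕ} (hn : 2 ≤ n) (lam α : F) :
    vB n lam α ⟨0, by omega⟩ = α := by
  simp [vB]

theorem vB_one {F : Type u} [Field F] {n : ℕ} (hn : 2 ≤ n) (lam α : F) :
    vB n lam α ⟨1, by omega⟩ = lam * α⁻¹ := by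
  simp [vB]

theorem vB_ge {F : Type u} [Field F] {n : ℕ} (lam α : F) (i : Fin n) (hi : 2 ≤ (i : ℕ)) :
    vB n lam α i = 0 := by
  have h0 : (i : ℕ) ≠ 0 := by omega
  have h1 : (i : ℕ) ≠ 1 := by omega
  simp [vB, h0, h1]

/-- [GVA] -/
theorem pkgGVA : Cfsg.Agent.Lib.Helper60.SUG.PkgGVA.{u} := by
  intro F _ q n hn lam hlam
  refine ⟨?_, ?_⟩
  · intro h
    have h1 := congrFun h ⟨0, by omega⟩
    rw [vA_zero hn] at h1
    exact one_ne_zero h1
  · unfold Cfsg.hermForm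
    rw [sum_two hn _ (fun i hi => by rw [vA_ge lam i hi, zero_mul]), vA_zero hn, vA_one hn,
      one_pow, one_mul, ← pow_succ', hlam]
    ring

/-- [GHERM] -/
theorem pkgGHerm : Cfsg.Agent.Lib.Helper60.SUG.PkgGHerm.{u} := by
  intro F _ q n hn lam α hlam hα hα2
  have hαβ : α * α ^ q = 1 := by rw [← pow_succ', hα]
  have hα0 : α ≠ 0 := by
    rintro rfl
    rw [zero_mul] at hαβ
    exact zero_ne_one hαβ
  have hβ : α ^ q = α⁻¹ := eq_inv_of_mul_eq_one_right hαβ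
  unfold Cfsg.hermForm
  rw [sum_two hn _ (fun i hi => by rw [vA_ge lam i hi, zero_mul]), vA_zero hn, vA_one hn,
    vB_zero hn, vB_one hn, one_mul, mul_pow, inv_pow, hβ, inv_inv, ← mul_assoc, ← pow_succ', hlam]
  intro h
  apply hα2
  have h1 : α⁻¹ = α := by linear_combination h
  have h2 : α * α⁻¹ = 1 := mul_inv_cancel₀ hα0
  rw [h1] at h2
  rw [pow_two]
  exact h2

end Cfsg.Agent.Lib.Helper8.SUG
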