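import Mathlib
import Cfsg.Agent.Lib.Helper60.SUG.GenDefs
import Cfsg.Agent.Lib.Helper8.SUG.GVA

/-!
# SUG (S2412), [GEN] leaf [GSPAN]: `vA`, `vB` span the vectors supported on the coordinates `0, 1`
-/

set_option autoImplicit false

namespace Cfsg.Agent.Lib.Helper8.SUG

open Matrix Cfsg.Agent.Lib.Helper60.SUG

universe u

/-- [GSPAN] -/
theorem pkgGSpan : Cfsg.Agent.Lib.Helper60.SUG.PkgGSpan.{u} := by
  intro F _ n hn lam α hlam hα hα2 v hv
  have hd : α - α⁻¹ ≠ 0 := by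
    intro h
    apply hα2
    have h1 : α⁻¹ = α := by linear_combination -h
    have h2 : α * α⁻¹ = 1 := mul_inv_cancel₀ hα
    rw [h1] at h2
    rw [pow_two]
    exact h2
  obtain ⟨b, hb⟩ : ∃ b : F, b * (α - α⁻¹) = v ⟨0, by omega⟩ - v ⟨1, by omega⟩ / lam :=
    ⟨(v ⟨0, by omega⟩ - v ⟨1, by omega⟩ / lam) / (α - α⁻¹), div_mul_cancel₀ _ hd⟩
  refine ⟨v ⟨0, by omega⟩ - b * α, b, ?_⟩
  funext i
  rw [Pi.add_apply, Pi.smul_apply, Pi.smul_apply, smul_eq_mul, smul_eq_mul]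
  by_cases h0 : (i : ℕ) = 0
  · have hi : i = ⟨0, by omega⟩ := Fin.ext h0
    rw [hi, vA_zero hn, vB_zero hn]
    ring
  · by_cases h1 : (i : ℕ) = 1
    · have hi : i = ⟨1, by omega⟩ := Fin.ext h1
      rw [hi, vA_one hn, vB_one hn]
      have h3 : v ⟨1, by omega⟩ = lam * (v ⟨0, by omega⟩ - b * (α - α⁻¹)) := by
        rw [hb]
        field_simp
        ring
      rw [h3]
      ring
    · have h2 : 2 ≤ (i : ℕ) := by omega
      rw [hv i h2, vA_ge lam i h2, vB_ge lam α i h2]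
      ring

end Cfsg.Agent.Lib.Helper8.SUG
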